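import Mathlib
import Cfsg.Agent.Lib.Tw.OutC
import Cfsg.Agent.Lib.Chev.Ree

/-! The outer automorphism groups of the Ree groups `²F₄(q)` and `²G₂(q)`. -/

set_option autoImplicit false
set_option linter.unusedSectionVars false

namespace Cfsg.Agent.Chev
open Cfsg.Lie RSys PreRGD ChevM
variable {K : Type*} [Field K] [Fintype K] {φ : K →+* K} {Γ : Type*} [Group Γ]

theorem exists_unit_of_inj (χ : Kˣ →* Kˣ) (h : ∀ a, χ a = 1 → a = 1) {u : K} (hu : u ≠ 0) : ∃ a, (χ a : K) = u :=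
  (Finite.surjective_of_injective ((injective_iff_map_eq_one χ).mpr h) (Units.mk0 u hu)).imp fun _ => congrArg Units.val

theorem suz_aut [CharP K 2] (hφ2 : ∀ t, φ (φ t) ^ 2 = t) (hφ : ∃ t, φ t ≠ t) {y : K → K → Γ}
    (mul : ∀ t u t' u', y t u * y t' u' = y (t + t') (u + u' + φ t * t'))
    (inj : ∀ {t u t' u'}, y t u = y t' u' → u = u') {θ : MulAut Γ}
    (conj : ∀ a : Kˣ, ∃ g, θ g = g ∧ ∀ t u, g * y t u * g⁻¹ = y (a * t) (φ a * a * u)) {u₀ : K}
    (h : θ (y 1 0) = y 1 u₀) (t u : K) : θ (y t u) = y t u := by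
  have h0 : y 0 0 = 1 := by simpa using mul 0 0 0 0
  have h1 : θ (y 0 1) = y 0 1 := by
    have := congrArg θ (mul 1 0 1 0)
    rw [map_mul, h, mul] at this
    simpa [CharTwo.add_self_eq_zero] using this.symm
  have h2 : ∀ u, θ (y 0 u) = y 0 u := fun u => by
    by_cases hu : u = 0
    · simp [hu, h0]
    obtain ⟨a, rfl⟩ := exists_unit_of_inj (Units.map φ.toMonoidHom * MonoidHom.id _) (fun a e => by
      have e1 : φ a = (a : K)⁻¹ := eq_inv_of_mul_eq_one_left (congrArg Units.val e)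
      have e2 := hφ2 a
      rw [e1, map_inv₀, e1, inv_inv, sq, mul_eq_left₀ a.ne_zero] at e2
      exact Units.ext e2) hu
    obtain ⟨g, e1, e2⟩ := conj a
    have := congrArg θ (e2 0 1)
    rw [map_mul, map_mul, map_inv, e1, h1, e2] at this
    simpa using this.symm
  have h3 : ∀ t, θ (y t 0) = y t (φ t * t * u₀) := fun t => by
    by_cases ht : t = 0
    · simp [ht, h0]
    obtain ⟨g, e1, e2⟩ := conj (Units.mk0 t ht)
    have := congrArg θ (e2 1 0)
    rw [map_mul, map_mul, map_inv, e1, h, e2] at this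
    simpa using this.symm
  obtain ⟨s, hs⟩ := hφ
  have h4 := congrArg θ ((mul s 0 1 0).trans (by simpa using (mul (s + 1) 0 0 (φ s)).symm))
  rw [map_mul, map_mul, h3, h3, h3, h2, mul, mul] at h4
  obtain rfl : u₀ = 0 := mul_left_cancel₀ (a := φ s + s) (by rwa [← CharTwo.sub_eq_add, sub_ne_zero])
    (by linear_combination (norm := (simp; ring_nf)) -inj h4)
  rw [show y t u = y t 0 * y 0 u by simp [mul], map_mul, h2, h3, mul_zero]

theorem ree_aut [CharP K 3] (hφ2 : ∀ t, φ (φ t) ^ 3 = t) (hφ : ∃ t : K, t ^ 3 ≠ t) {y : K → K → K → Γ}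
    (mul : ∀ t u v t' u' v', y t u v * y t' u' v' =
      y (t + t') (u + u' - t * φ t' ^ 3) (v + v' - u * t' - t ^ 2 * φ t' ^ 3 + t * t' * φ t' ^ 3))
    (inj : ∀ {t u v t' u' v'}, y t u v = y t' u' v' → t = t' ∧ u = u' ∧ v = v') {θ : MulAut Γ}
    (conj : ∀ a : Kˣ, ∃ g, θ g = g ∧ ∀ t u v, g * y t u v * g⁻¹ = y (a * t) (a * φ a ^ 3 * u) (a ^ 2 * φ a ^ 3 * v))
    (h : ∀ t u v, ∃ u' v', θ (y t u v) = y t u' v') (t u v : K) : θ (y t u v) = y t u v := by
  have h3 : (3 : K) = 0 := CharP.cast_eq_zero K 3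
  have hN : ∀ t, φ (φ t ^ 3) ^ 3 = t ^ 3 := fun t => by rw [map_pow, hφ2]
  have h0 : y 0 0 0 = 1 := by simpa using mul 0 0 0 0 0 0
  obtain ⟨u₀, v₀, h1⟩ := h 1 0 0
  have a1 : ∀ u v, y 1 u v ^ 3 = y 0 0 (-1) := fun u v => by
    rw [pow_succ, sq, mul, mul, map_one]
    congr 1 <;> grind
  have a2 : θ (y 0 0 (-1)) = y 0 0 (-1) := by rw [← a1 0 0, map_pow, h1, a1, a1]
  have a3 : ∀ v, θ (y 0 0 v) = y 0 0 v := fun v => by
    by_cases hv : v = 0
    · simp [hv, h0]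
    obtain ⟨a, e⟩ := exists_unit_of_inj (powMonoidHom 2 * (powMonoidHom 3).comp (Units.map φ.toMonoidHom)) (fun a e => by
      have e1 : φ a ^ 3 = ((a : K) ^ 2)⁻¹ := eq_inv_of_mul_eq_one_right (by simpa using congrArg Units.val e)
      have e2 := hN a
      rw [e1, map_inv₀, map_pow, inv_pow, ← pow_mul, mul_comm, pow_mul, e1, inv_pow, inv_inv, ← pow_mul, pow_succ,
        mul_eq_left₀ (pow_ne_zero _ a.ne_zero)] at e2
      exact Units.ext e2) (neg_ne_zero.mpr hv)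
    obtain ⟨g, e1, e2⟩ := conj a
    replace e : (a : K) ^ 2 * φ a ^ 3 = -v := by simpa using e
    have := congrArg θ (e2 0 0 (-1))
    rw [map_mul, map_mul, map_inv, e1, a2, e2] at this
    simpa [e] using this.symm
  have a4 : ∀ t, θ (y t 0 0) = y t (t * φ t ^ 3 * u₀) (t ^ 2 * φ t ^ 3 * v₀) := fun t => by
    by_cases ht : t = 0
    · simp [ht, h0]
    obtain ⟨g, e1, e2⟩ := conj (Units.mk0 t ht)
    have := congrArg θ (e2 1 0 0)
    rw [map_mul, map_mul, map_inv, e1, h1, e2] at this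
    simpa using this.symm
  choose α β a5 using fun u => h 0 u 0
  have a6 := fun t t' => by
    have := congrArg θ (show y t 0 0 * y t' 0 0 = y (t + t') 0 0 * y 0 (-(t * φ t' ^ 3)) 0 *
      y 0 0 (-(t ^ 2 * φ t' ^ 3) + t * t' * φ t' ^ 3) by simp [mul])
    rw [map_mul, map_mul, map_mul, a4, a4, a4, a5, a3, mul, mul, mul] at this
    exact (inj this).2
  obtain ⟨s, hs⟩ := hφ
  have a7 := (a6 (φ s ^ 3) 1).1
  have a8 := (a6 1 s).1
  simp only [map_add, map_one, map_zero, add_pow_char, hN, one_pow, mul_one, one_mul] at a7 a8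
  obtain rfl : u₀ = 0 := mul_left_cancel₀ (sub_ne_zero.mpr hs) (by linear_combination a8 - a7)
  have b1 : ∀ t, α (-t) = -t ∧ β (-t) = -(v₀ * (t ^ 2 + 2 * t * φ t ^ 3 + 2 * t + φ t ^ 3)) := fun t => by
    have := a6 t 1
    simp only [map_add, map_one, map_zero, add_pow_char, one_pow, mul_one, one_mul] at this
    exact ⟨by linear_combination -this.1, by linear_combination -this.2⟩
  obtain ⟨r, hr⟩ : ∃ r : K, r ≠ φ r ^ 3 := by
    by_contra! e
    exact hs (by rw [← hN, ← e, ← e])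
  have b2 := congrArg θ (show y 0 (-r) 0 * y 0 (-(-r)) 0 = y 0 0 0 by simp [mul])
  rw [map_mul, a5, a5, a3, mul, (b1 _).2, (b1 _).2] at b2
  obtain rfl : v₀ = 0 := mul_left_cancel₀ (mul_ne_zero (a := r) (fun e => hr (by simp [e])) (sub_ne_zero.mpr hr))
    (by linear_combination (norm := (simp; grind)) (inj b2).2.2)
  rw [show y t u v = y t 0 0 * y 0 (-(-u)) 0 * y 0 0 v by simp [mul], map_mul, map_mul, a4, a5, a3, (b1 _).1, (b1 _).2]
  simp

theorem CenterData.cm_inj {D : ChevalleyDatum} [Tab D] {l : ℕ} {e : ℕ → ℤ} (h : CenterData D 1 l e)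
    {a : Fin D.rank → Kˣ} (ha : cm D a = 1) : a = 1 := by
  obtain ⟨w, rfl⟩ := h.hG_eq_one_iff.mp (ChevM.hG_eq_one_iff.mpr ha)
  rw [show w = 1 from Subtype.ext ((pow_one _).symm.trans w.2), map_one]

theorem lch_of {D : ChevalleyDatum} [Tab D] (c : Fin D.rank → Kˣ) (i j : Fin D.rank) {r : ℕ} (a b : ℕ)
    (h : (allLt D.rank fun l => decide (rcN D r l = a * rcN D (D.simple i) l + b * rcN D (D.simple j) l)) = true) :
    (lch D c r : K) = c i ^ a * c j ^ b := by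
  rw [lch_comb c (i := a) (j := b) (r := D.simple i) (s := D.simple j)
    (funext fun l => of_decide_eq_true (allLt_iff.mp h l l.2))]
  simp

namespace IsTw
section F4
variable [CharP K 2] {σ : chevF4.group K →* chevF4.group K} (h : IsTw chevF4 twF4 (xG chevF4 K) φ σ)
  (hφ2 : ∀ t, φ (φ t) ^ 2 = t)
include h hφ2

theorem bW_mul (t u t' u' : K) : bW (xG chevF4 K) φ 27 25 28 30 t u * bW (xG chevF4 K) φ 27 25 28 30 t' u' =
    bW (xG chevF4 K) φ 27 25 28 30 (t + t') (u + u' + φ t * t') := by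
  have e := evS_eq_of_check h.chv.rel (collFor_F4 2 (ordOf chevF4 certF4 [1, 1, 1, 1])) (charOK_of K 2)
    (fun i => [t, φ t, u, φ u, t', φ t', u', φ u'].getD i 0) (w := bL 27 25 28 30 ++
      [(27, [(1, [5])]), (25, [(1, [4])]), (28, [(1, [5, 4]), (1, [6])]), (30, [(1, [7, 7])])])
    (w' := [(27, [(1, [1]), (1, [5])]), (25, [(1, [0]), (1, [4])]), (28, [(1, [0, 1]), (1, [0, 5]), (1, [2]),
      (1, [4, 5]), (1, [6])]), (30, [(1, [0, 5, 5]), (1, [3, 3]), (1, [7, 7])])]) (by decide +kernel)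
  simp only [bW, map_add, map_mul, add_pow_char, mul_pow, hφ2]
  convert e using 1
  · simp [bL, mul_assoc, sq]
  · simp only [evS_cons, evS_nil, mul_one, mul_assoc]
    refine congrArg₂ _ ?_ (congrArg₂ _ ?_ (congrArg₂ _ ?_ ?_)) <;> refine congrArg _ ?_ <;> simp <;> grind

theorem dgAut_bW {c : Fin chevF4.rank → Kˣ} (hc : c ∈ h.A) (t u : K) :
    dgAut chevF4 c (bW (xG chevF4 K) φ 27 25 28 30 t u) =
      bW (xG chevF4 K) φ 27 25 28 30 (c (repF4 1) * t) (φ (c (repF4 1)) * c (repF4 1) * u) := by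
  have h1 : (c (h.tw.νp (repF4 1)) : K) = φ (c (repF4 1)) := (h.mem_A.mp hc _).trans (pow_one _)
  have h2 := fun r a b e => (lch_of c (h.tw.νp (repF4 1)) (repF4 1) (r := r) a b e).trans (by rw [h1])
  simp only [bW, map_mul, mul_pow, hφ2]
  rw [dgAut_xG _ (by decide), dgAut_xG _ (by decide), dgAut_xG _ (by decide), dgAut_xG _ (by decide),
    h2 27 1 0 (by rw [Twist.νp_val]; decide +kernel), h2 25 0 1 (by rw [Twist.νp_val]; decide +kernel),
    h2 28 1 1 (by rw [Twist.νp_val]; decide +kernel), h2 30 2 1 (by rw [Twist.νp_val]; decide +kernel)]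
  congr 3 <;> ring_nf

theorem card_Out_F4 {q : ℕ} (hφ : ∀ t, φ t = t ^ q) (hne : ∃ t, φ t ≠ t) {f : Γ →* chevF4.group K} (E : h.fold.Emb f)
    (hfix : ∀ g, σ g = g → g ∈ f.range) (hf : f.range ≤ h.fold.gen) : Nat.card (Out Γ) = Nat.card (K ≃+* K) := by
  have n0 : h.Nd (repF4 0) 2 (RingHom.id K) := ⟨h.orbOK_F4 (by decide +kernel), fun t => h.iter_F4 hφ2 _ t⟩
  have hinj : ∀ a b, repF4 a ∈ h.fold.orb (repF4 b) → a = b := fun a b e => by
    have := h.orb_inv (fun i => min i (twF4.ν i)) (by decide +kernel) e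
    clear e; revert a b; decide +kernel
  choose y hy using h.exists_bW hφ2 E
  have hy' : ∀ {x}, f x ∈ (PG chevF4 K).UL (h.fold.orb (repF4 1)) → ∃ t u, x = y t u := fun hx =>
    (h.eq_bW hφ2 E hx).imp fun t e => e.imp fun u e => E.inj (e.trans (hy t u).symm)
  have hm : ∀ t u, f (y t u) ∈ (PG chevF4 K).UL (h.fold.orb (repF4 1)) := fun t u => hy t u ▸ h.bW_mem_UL t u
  have mul : ∀ t u t' u', y t u * y t' u' = y (t + t') (u + u' + φ t * t') := fun t u t' u' =>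
    E.inj (by rw [map_mul, hy, hy, hy, h.bW_mul hφ2])
  have inj : ∀ {t u t' u'}, y t u = y t' u' → u = u' := fun {t u t' u'} e => by
    obtain rfl := (h.filt_bW0 E (hy t u)).2.symm.trans (h.filt_bW0 E ((congrArg f e).trans (hy t' u'))).2
    have := congrArg (y t 0 * ·) e
    simp only [mul, CharTwo.add_self_eq_zero, zero_add] at this
    have h1 := (h.filt_bW1 E (hy 0 (u + φ t * t))).2
    rw [this, (h.filt_bW1 E (hy 0 _)).2] at h1
    exact (add_right_cancel h1).symm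
  have h0 : y 0 0 = 1 := by simpa using mul 0 0 0 0
  have h10 : ∀ θ : MulAut Γ, θ (y 1 0) * θ (y 1 0) ≠ 1 := fun θ e => by
    rw [← map_mul, mul, map_eq_one_iff θ θ.injective, ← h0] at e
    simpa using inj e
  refine h.card_Out_of_inj E hfix (i := repF4 0) (h.exists_indS E hf h.hrep_F4 hinj (fun θ π h1 h2 => ?_) fun θ hθ => ?_)
    (fun a _ => center_F4.cm_inj) (fun t => (n0.exists_sc E rfl).imp fun x hx => ⟨UL_le_U _ _ hx.1, hx.2⟩) fun j => ?_
  · have h3 : π 1 ≠ 0 := fun e => by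
      have h4 := e ▸ (h2 1 _).mpr (hm 1 0)
      refine h10 θ ((n0.sc_eq_zero E (by simpa using mul_mem h4 h4)).mp ?_)
      rw [map_mul, sc_mul (UL_le_U _ _ h4) (UL_le_U _ _ h4), CharTwo.add_self_eq_zero]
    clear h2; revert π; decide
  · refine h.indS_of_first E hfix hθ n0 (fun v => by rw [h.cm_dl_single hφ]; rfl) fun θ hθ a0 => ?_
    obtain ⟨b, w, e⟩ := hy' ((((Fold.mem_Pres.mp hθ).2 _).1 _).mpr (hm 1 0))
    have hb : b ≠ 0 := fun e' => h10 θ (by simp [e, e', mul, CharTwo.add_self_eq_zero, h0])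
    obtain ⟨c, hc, e1, e2⟩ := h.exists_A_two (i := repF4 1) (by decide +kernel) (by decide +kernel) (h.iter_F4 hφ2 _)
      (Units.mk0 b hb)
    obtain ⟨s, hs⟩ := h.exists_ind E hfix hc 1
    have a1 := mul_mem (inv_mem (h.pres_of_indS ⟨c, hc, 1, hs⟩)) hθ
    have a2 : s⁻¹ * θ ∈ FixP f _ := mul_mem (inv_mem fun x hx => E.inj (by
      rw [hs, dfAut_one, dgAut_fix (fun l hl => e2 l fun hl' => absurd (hinj 0 1 ?_) (by decide)) hx]
      rw [← Fold.orb_eq hl', Fold.orb_eq hl]; exact Fold.mem_orb_self _)) a0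
    have a3 := suz_aut hφ2 hne mul inj (θ := s⁻¹ * θ) (fun a => by
      obtain ⟨g, e3, e4⟩ := n0.fix_tor E a1 a2 (v := a⁻¹) rfl
      refine ⟨g, e3, fun t u => E.inj ?_⟩
      rw [map_mul, map_mul, map_inv, e4, hG_conj, hy, hy, h.dgAut_bW hφ2 (h.cm_mem_A.mpr (h.σ_hG_of_mem (n0.dl_mem_A rfl))),
        h.cm_dl_single hφ, show exN chevF4 twF4 _ 2 _ = [-1, 0] by decide +kernel]
      simp [evQ]) (u₀ := (φ b * b)⁻¹ * w) (by
      rw [MulAut.mul_apply, MulAut.inv_apply, MulEquiv.symm_apply_eq, e]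
      refine E.inj ?_
      rw [hs, dfAut_one, hy, hy, h.dgAut_bW hφ2 hc, e1, Units.val_mk0, mul_one, mul_inv_cancel_left₀ (by simpa)])
    rw [← inv_mul_eq_one.mp (E.aut_eq_one hf h.hrep_F4 a1 (Fin.forall_fin_two.mpr ⟨a2, fun x hx => by
      obtain ⟨t, u, rfl⟩ := hy' hx
      exact a3 t u⟩))]
    exact ⟨c, hc, 1, hs⟩
  · obtain ⟨a, ha⟩ := h.hrep_F4 j
    fin_cases a
    · exact ⟨_, ha, (n0.exists_sc E (map_one _)).imp fun x hx => ⟨UL_le_U _ _ hx.1, hx.2⟩⟩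
    refine ⟨⟨1, by decide⟩, Fold.orb_eq (h.mem_orb_of (a := repF4 1) (i := ⟨1, by decide⟩) 1 (by decide +kernel)) ▸ ha,
      y 1 0, UL_le_U _ _ (hm 1 0), sc_eq ?_⟩
    have : ∀ r : Fin chevF4.nroots, r.1 ∈ [25, 28, 30] → ∀ t, xG chevF4 K r t ∈ (PG chevF4 K).UJ {⟨1, by decide⟩} :=
      fun r hr => xG_mem_US (pos_not_inSub_singleton.mpr (by revert r; decide +kernel))
    rw [hy, bW, map_one, mul_assoc, mul_assoc]
    change (xG chevF4 K 27 1)⁻¹ * _ ∈ _
    rw [inv_mul_cancel_left]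
    exact mul_mem (this ⟨25, by decide⟩ (by simp) _)
      (mul_mem (this ⟨28, by decide⟩ (by simp) _) (this ⟨30, by decide⟩ (by simp) _))

end F4

section G2
variable [CharP K 3] {σ : chevG2.group K →* chevG2.group K} (h : IsTw chevG2 twG2 (xG chevG2 K) φ σ)
  (hφ2 : ∀ t, φ (φ t) ^ 3 = t)
include h hφ2

theorem dgAut_rW {c : Fin chevG2.rank → Kˣ} (hc : c ∈ h.A) (t u v : K) :
    dgAut chevG2 c (rW (xG chevG2 K) φ t u v) =
      rW (xG chevG2 K) φ (c gi1 * t) (c gi1 * φ (c gi1) ^ 3 * u) (c gi1 ^ 2 * φ (c gi1) ^ 3 * v) := by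
  have h1 : (c gi0 : K) = φ (c gi1) := by rw [← (h.σT_G2 c).1, show h.σT c = c from hc]
  have h2 := fun r a b e => (lch_of c gi0 gi1 (r := r) a b e).trans (by rw [h1])
  simp only [rW, map_mul, map_pow, hφ2]
  rw [dgAut_xG _ (by decide), dgAut_xG _ (by decide), dgAut_xG _ (by decide), dgAut_xG _ (by decide),
    dgAut_xG _ (by decide), dgAut_xG _ (by decide), h2 7 1 0 (by decide +kernel), h2 6 0 1 (by decide +kernel),
    h2 8 1 1 (by decide +kernel), h2 9 2 1 (by decide +kernel), h2 10 3 1 (by decide +kernel),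
    h2 11 3 2 (by decide +kernel)]
  ring_nf

omit hφ2 in
theorem sc_rW (t u v : K) : sc gi0 (rW (xG chevG2 K) φ t u v) = φ t := by
  have : ∀ r : Fin chevG2.nroots, r.1 ∈ [6, 8, 9, 10, 11] → ∀ t, xG chevG2 K r t ∈ (PG chevG2 K).UJ {gi0} :=
    fun r hr => xG_mem_US (pos_not_inSub_singleton.mpr (by revert r; decide +kernel))
  refine sc_eq ?_
  change (xG chevG2 K 7 _)⁻¹ * _ ∈ _
  simp only [rW, mul_assoc, inv_mul_cancel_left]
  exact mul_mem (this ⟨6, by decide⟩ (by simp) _) (mul_mem (this ⟨8, by decide⟩ (by simp) _) (mul_mem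
    (this ⟨9, by decide⟩ (by simp) _) (mul_mem (this ⟨10, by decide⟩ (by simp) _) (this ⟨11, by decide⟩ (by simp) _))))

theorem card_Out_G2 (hne : ∃ t : K, t ^ 3 ≠ t) {f : Γ →* chevG2.group K} (E : h.fold.Emb f)
    (hfix : ∀ g, σ g = g → g ∈ f.range) (hf : f.range ≤ h.fold.gen) : Nat.card (Out Γ) = Nat.card (K ≃+* K) := by
  choose y hy using fun t u v => E.exists_U (h.rW_mem t u v) (h.σ_rW hφ2 t u v)
  have hy' : ∀ {x}, f x ∈ (PG chevG2 K).U → ∃ t u v, x = y t u v := fun {x} hx => by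
    obtain ⟨t, u, v, e⟩ := h.eq_rW hφ2 hx (E.fix x)
    exact ⟨t, u, v, E.inj (e.trans (hy t u v).symm)⟩
  have hm : ∀ t u v, f (y t u v) ∈ (PG chevG2 K).U := fun t u v => hy t u v ▸ h.rW_mem t u v
  have hs : ∀ t u v, sc gi0 (f (y t u v)) = φ t := fun t u v => by rw [hy, h.sc_rW]
  have hrep : ∀ i, ∃ _ : Unit, i ∈ h.fold.orb gi0 := fun i => ⟨(), h.orb_G2 gi0 ▸ Set.mem_univ i⟩
  have hU : (PG chevG2 K).UL (h.fold.orb gi0) = (PG chevG2 K).U := h.UL_G2 gi0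
  have h1 : ∀ t, ∃ x, f x ∈ (PG chevG2 K).U ∧ sc gi0 (f x) = t := fun t =>
    ⟨_, hm (φ t ^ 3) 0 0, by rw [hs, map_pow, hφ2]⟩
  have h2 : ∀ x, f x ∈ (PG chevG2 K).U → (sc gi0 (f x) = 0 ↔ x ^ 3 = 1) := fun x hx => by
    obtain ⟨t, u, v, rfl⟩ := hy' hx
    rw [hs, ← E.inj.eq_iff, map_pow, hy, h.rW_cube hφ2, map_one, ← h.rW_zero]
    exact ⟨fun e => by simp [e], fun e => by simpa using (h.rW_inj e).2.2⟩
  have h3 := fun (i : Fin chevG2.rank) (e : twG2.ν (twG2.ν i) = i) e' => h.exists_A_two (i := i) e e' fun t => by rw [h.iter_G2, hφ2]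
  have h4 := fun a (_ : a ∈ h.A) => center_G2.cm_inj (a := a)
  refine h.card_Out_of_inj E hfix (i := gi0) (h.exists_indS E hf (rep := fun _ : Unit => gi0) hrep (fun _ _ _ => rfl)
    (fun _ _ _ _ _ => rfl) fun θ hθ => ?_) h4 h1 fun j => ⟨gi0, (hrep j).choose_spec, h1 1⟩
  obtain ⟨s, hs1, hs2⟩ := h.exists_first E hfix hθ (i := gi0) (hU ▸ h1) (fun x hx => by
    rw [hU] at hx
    rw [h2 x hx, h2 _ (((Fold.mem_Pres.mp hθ).1.1 x).mpr hx), ← map_pow, map_eq_one_iff θ θ.injective]) (fun v => by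
    obtain ⟨c, hc, e, -⟩ := h3 gi0 (by decide +kernel) (by decide +kernel) (v ^ 2)
    obtain ⟨a, ha, rfl⟩ := h.cm_surj h4 hc
    exact ⟨a, ha, e⟩) fun v => (h3 gi0 (by decide +kernel) (by decide +kernel) v).imp fun c e => ⟨e.1, e.2.1⟩
  rw [hU] at hs2
  have a1 := mul_mem (inv_mem (h.pres_of_indS hs1)) hθ
  have a2 := ree_aut hφ2 hne (y := y) (fun _ _ _ _ _ _ => E.inj (by rw [map_mul, hy, hy, hy, h.rW_mul hφ2]))
    (fun e => h.rW_inj ((hy _ _ _).symm.trans ((congrArg f e).trans (hy _ _ _)))) (θ := s⁻¹ * θ) (fun a => by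
      obtain ⟨c, hc, e, -⟩ := h3 gi1 (by decide +kernel) (by decide +kernel) a
      obtain ⟨b, hb, rfl⟩ := h.cm_surj h4 hc
      obtain ⟨g, hg⟩ := h.exists_hG E hfix hb
      obtain ⟨x, hx, e1⟩ := h1 1
      exact ⟨g, h.fix_of_sc E a1 (fun j => (hrep j).choose_spec) hx e1 hs2 hg, fun t u v => E.inj (by
        rw [map_mul, map_mul, map_inv, hg, hG_conj, hy, hy, h.dgAut_rW hφ2 hc, e])⟩) fun t u v => by
      obtain ⟨t', u', v', e⟩ := hy' (((Fold.mem_Pres.mp a1).1.1 _).mpr (hm t u v))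
      have := hs2 _ (hm t u v)
      rw [e, hs, hs] at this
      exact ⟨u', v', φ.injective this ▸ e⟩
  rwa [← inv_mul_eq_one.mp (E.aut_eq_one hf (rep := fun _ : Unit => gi0) hrep a1 fun _ x hx => by
    obtain ⟨t, u, v, rfl⟩ := hy' (hU ▸ hx)
    exact a2 t u v)]

end G2
end IsTw

theorem card_Out_twistedF4 {m : ℕ} (hm : 1 ≤ m) (hK : Fintype.card K = 2 ^ (2 * m + 1)) :
    Nat.card (Out (twistedF4 K (2 ^ m))) = 2 * m + 1 := by
  obtain ⟨_, φ, hφ, hφ2⟩ := exists_frob_F4 hK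
  obtain ⟨t, ht⟩ := exists_pow_ne_self (K := K) one_lt_two (hK ▸ lt_self_pow₀ one_lt_two (by omega))
  rw [← card_ringEquiv_of K 2 _ (Nat.card_eq_fintype_card.trans hK)]
  exact IsTw.card_Out_F4 _ hφ2 hφ (by_contra fun e => ht (by
    push Not at e
    simpa [e] using hφ2 t)) (emb_twistedF4 φ hφ hφ2)
    (fun g e => mem_range_wordIncl.mpr ((mem_twistedF4_iff φ hφ hφ2).mpr e)) (range_twistedF4 φ hφ hφ2).le

theorem card_Out_twistedG2 {m : ℕ} (hm : 1 ≤ m) (hK : Fintype.card K = 3 ^ (2 * m + 1)) :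
    Nat.card (Out (twistedG2 K (3 ^ m))) = 2 * m + 1 := by
  obtain ⟨_, φ, hφ, hφ2⟩ := exists_frob_G2 hK
  rw [← card_ringEquiv_of K 3 _ (Nat.card_eq_fintype_card.trans hK)]
  exact IsTw.card_Out_G2 _ hφ2 (exists_pow_ne_self (by norm_num) (hK ▸ lt_self_pow₀ (by norm_num) (by omega)))
    (emb_twistedG2 φ hφ hφ2) (fun g e => mem_range_wordIncl.mpr ((mem_twistedG2_iff hK φ hφ hφ2).mpr e))
    (range_twistedG2 φ hφ hφ2).le

end Cfsg.Agent.Chev
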